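import Cfsg.Prelude.Def_ChevAutomorphisms
import Cfsg.Prelude.Def_LieTypes
import Cfsg.Prelude.Def_ChevB2
import Mathlib

set_option autoImplicit false

namespace Cfsg.Agent.Lib.KnownSimple

open Cfsg.Lie

/-- Table check on a chain `s, u₁, u₂, …`: consecutive members differ by the root `r`. -/
def okList (D : ChevalleyDatum) (r : ℕ) : ℕ → List (ℕ × ℤ) → Bool
  | _, [] => true
  | s, (u, _) :: rest => (D.chainRoot r s 1 == some u) && decide (u < D.nroots) && okList D r u rest

/-- Table check for the whole chain table of a datum. -/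
def chainOK (D : ChevalleyDatum) : Bool :=
  (List.range D.nroots).all fun r => (D.chain.getD r #[]).toList.all fun e =>
    decide (e.1 < D.nroots) && okList D r e.1 e.2.toList

theorem chainOK_G2 : chainOK chevG2 = true := by decide +kernel
theorem chainOK_B2 : chainOK chevB2 = true := by decide +kernel
theorem chainOK_D4 : chainOK chevD4 = true := by decide +kernel
theorem chainOK_F4 : chainOK chevF4 = true := by decide +kernel
theorem chainOK_E6 : chainOK chevE6 = true := by decide +kernel
theorem chainOK_E7 : chainOK chevE7 = true := by decide +kernel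
theorem chainOK_E8 : chainOK chevE8 = true := by decide +kernel

theorem chainOK_of_mem {D : ChevalleyDatum}
    (hD : D ∈ [chevG2, chevB2, chevD4, chevF4, chevE6, chevE7, chevE8]) : chainOK D = true := by
  simp only [List.mem_cons, List.not_mem_nil, or_false] at hD
  rcases hD with rfl | rfl | rfl | rfl | rfl | rfl | rfl
  · exact chainOK_G2
  · exact chainOK_B2
  · exact chainOK_D4
  · exact chainOK_F4
  · exact chainOK_E6
  · exact chainOK_E7
  · exact chainOK_E8

section character

variable {D : ChevalleyDatum} {F : Type*} [Field F]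

theorem okList_pow (χ : ℕ → Fˣ) (hχ : D.IsRootCharacter χ) {r : ℕ} (hr : r < D.nroots) :
    ∀ (L : List (ℕ × ℤ)) (s : ℕ), s < D.nroots → okList D r s L = true →
      ∀ (pos : ℕ) (q : ℕ × ℤ), L[pos]? = some q → χ q.1 = χ r ^ (pos + 1) * χ s := by
  intro L
  induction L with
  | nil =>
    intro s _ _ pos q hq
    simp at hq
  | cons hd tl ih =>
    intro s hs hok pos q hq
    obtain ⟨u, m⟩ := hd
    simp only [okList, Bool.and_eq_true, beq_iff_eq, decide_eq_true_eq] at hok
    obtain ⟨⟨h1, h2⟩, h3⟩ := hok
    have hu : χ u = χ r * χ s := hχ.2 r s u hr hs h1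
    cases pos with
    | zero =>
      simp only [List.getElem?_cons_zero, Option.some.injEq] at hq
      subst hq
      simpa using hu
    | succ pos =>
      simp only [List.getElem?_cons_succ] at hq
      have := ih u h2 h3 pos q hq
      rw [this, hu, pow_succ (χ r) (pos + 1)]
      group

/-- The key table property: each term of `x_r(t) e_s` has the expected weight. -/
theorem chainCoeff_weight (hD : chainOK D = true) (χ : ℕ → Fˣ) (hχ : D.IsRootCharacter χ) {r s u : ℕ}
    (hr : r < D.nroots) (km : ℕ × ℤ) (hkm : km ∈ D.chainCoeff r s u) :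
    χ u = χ r ^ km.1 * χ s := by
  unfold ChevalleyDatum.chainCoeff at hkm
  simp only [List.mem_flatMap, List.mem_filter, decide_eq_true_eq, List.mem_map] at hkm
  obtain ⟨e, ⟨he, rfl⟩, q, ⟨hq, hqu⟩, rfl⟩ := hkm
  have h1 : ∀ r', r' ∈ List.range D.nroots → _ := List.all_eq_true.mp hD
  have h2 := List.all_eq_true.mp (h1 r (List.mem_range.mpr hr)) e he
  simp only [Bool.and_eq_true, decide_eq_true_eq] at h2
  obtain ⟨h3, h4⟩ := h2
  have hq2 : e.2.toList[q.2]? = some q.1 := by
    have := List.mem_zipIdx hq
    obtain ⟨_, _, h5⟩ := this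
    rw [List.getElem?_eq_getElem (by omega)]
    simp [h5]
  have := okList_pow χ hχ hr e.2.toList e.1 h3 h4 q.2 q.1 hq2
  rw [hqu] at this
  simpa using this

end character

end Cfsg.Agent.Lib.KnownSimple
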